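import Cfsg.Agent.H722.Strong.Gen
import Cfsg.Agent.H472.ComStrong
import Cfsg.Agent.BpSpor.MFiveAbs
import Cfsg.Agent.H993.NoBadMAbs

/-!
# The strong commutator property for `p = 3` in a group with a 3-central element with centralizer `3^{1+12}.2.Suz`
(helper722, for S3842, S4094)

* `exists_sylow_inv` : a Sylow subgroup of `D` invariant under the isolated involution `z`;
* `f_eq_one` : elements of `C_D(z)` centralizing the radical `S`;
* `false_of_mem` : an element of a normal 3-subgroup has a centralizer of even order (after helper993);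
* `aux`, `main` : **no element of order divisible by 3 has the strong property**.
-/

set_option autoImplicit false
set_option linter.unusedSectionVars false

namespace Cfsg.Agent.H722.Strong.Abs

open Subgroup Cfsg
open Cfsg.Agent.H472.ComRed (cm)
open Cfsg.Agent.Lib.Cores
open Cfsg.Agent.BpSpor.M5 (Rad)
open scoped Pointwise

universe u v

section inD

variable {D : Type u} [Group D] [Finite D] {p : ℕ} [hp : Fact p.Prime] {z x : D} {N : Subgroup D} {A : Type v}
  [Group A] {f : ↥(centralizer ({z} : Set D)) →* A}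

/-- **A Sylow `p`-subgroup of `D` invariant under `z`.** -/
theorem exists_sylow_inv (h : Rad p z x N f) (hp2 : p ≠ 2) : ∃ P : Sylow p D, ∀ v ∈ P, z * v * z⁻¹ ∈ P := by
  have hN := h.nN
  obtain ⟨P'⟩ : Nonempty (Sylow p D) := inferInstance
  set M : Subgroup D := N ⊔ (P' : Subgroup D) with hM
  have hNM : N ≤ M := le_sup_left
  have hstep : ∀ m ∈ M, z * m * z⁻¹ ∈ M := by
    intro m hm
    obtain ⟨n, hn, c, hc, rfl⟩ := h.sup m
    have h1 : c ∈ M := by
      have h2 : c = n⁻¹ * (n * c) := by group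
      rw [h2]
      exact M.mul_mem (M.inv_mem (hNM hn)) hm
    have h2 : z * (n * c) * z⁻¹ = (z * n * z⁻¹) * c := by
      calc z * (n * c) * z⁻¹ = z * n * (c * z⁻¹) := by group
        _ = z * n * (z⁻¹ * c) := by rw [(show Commute c z from hc).inv_right.eq]
        _ = _ := by group
    rw [h2]
    exact M.mul_mem (hNM (hN.conj_mem n hn z)) h1
  have hzM : z ∈ normalizer (M : Set D) := by
    rw [mem_normalizer_iff]
    intro v
    refine ⟨hstep v, fun hv => ?_⟩
    have h1 := hstep _ hv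
    have h2 : z * (z * v * z⁻¹) * z⁻¹ = v := by
      calc z * (z * v * z⁻¹) * z⁻¹ = (z * z) * v * (z * z)⁻¹ := by group
        _ = v := by rw [h.zz]; group
    rwa [h2] at h1
  have hModd : Odd (Nat.card M) := by
    have h1 : Nat.card (N.subgroupOf M) * N.relIndex M = Nat.card M := (N.subgroupOf M).card_mul_index
    have h2 : Nat.card (N.subgroupOf M) = Nat.card N := Nat.card_congr (subgroupOfEquivOfLe hNM).toEquiv
    have h3 : N.relIndex M = N.relIndex (P' : Subgroup D) := by rw [hM, relIndex_sup_left]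
    obtain ⟨k, hk⟩ := IsPGroup.iff_card.1 P'.isPGroup'
    have h4 : N.relIndex (P' : Subgroup D) ∣ Nat.card (P' : Subgroup D) := index_dvd_card _
    rw [← h1, h2, h3]
    refine h.oN.mul (Odd.of_dvd_nat ?_ h4)
    rw [hk]
    exact (hp.out.odd_of_ne_two hp2).pow
  set φ : MulAut M := M.normalizerMonoidHom ⟨z, hzM⟩ with hφ
  have hφc : ∀ m : M, ((φ m : M) : D) = z * m * z⁻¹ := fun m => rfl
  have hφ2 : φ ^ 2 = 1 := by
    apply MulEquiv.ext
    intro m
    apply Subtype.ext
    rw [pow_two]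
    show ((φ (φ m) : M) : D) = m
    rw [hφc, hφc]
    calc z * (z * (m : D) * z⁻¹) * z⁻¹ = (z * z) * m * (z * z)⁻¹ := by group
      _ = m := by rw [h.zz]; group
  have hZ : IsPGroup 2 (zpowers φ) := IsPGroup.of_card_dvd_pow (n := 1) (by
    rw [Nat.card_zpowers, pow_one]
    exact orderOf_dvd_of_pow_eq_one hφ2)
  have hc : ¬ 2 ∣ Nat.card (Sylow p M) := by
    obtain ⟨S⟩ : Nonempty (Sylow p M) := inferInstance
    intro h2
    have h3 := S.card_dvd_index
    have h4 : (S : Subgroup M).index ∣ Nat.card M := index_dvd_card _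
    exact (Nat.not_even_iff_odd.2 hModd) (even_iff_two_dvd.2 ((h2.trans h3).trans h4))
  have : Fact (Nat.Prime 2) := ⟨Nat.prime_two⟩
  obtain ⟨S, hS⟩ := hZ.nonempty_fixed_point_of_prime_not_dvd_card (Sylow p M) hc
  have hS' : φ • S = S := hS ⟨φ, mem_zpowers φ⟩
  set P : Subgroup D := (S : Subgroup M).map M.subtype with hP
  have hPp : IsPGroup p P := S.isPGroup'.map _
  have hPi : ¬ p ∣ P.index := by
    rw [← relIndex_mul_index (map_subtype_le (S : Subgroup M)), hp.out.dvd_mul, not_or]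
    refine ⟨?_, fun h1 => P'.not_dvd_index (h1.trans (index_dvd_of_le le_sup_right))⟩
    have h1 : ((S : Subgroup M).map M.subtype).relIndex M = (S : Subgroup M).index := by
      rw [relIndex, subgroupOf, comap_map_eq_self_of_injective M.subtype_injective]
    rw [h1]
    exact S.not_dvd_index
  refine ⟨hPp.toSylow hPi, ?_⟩
  rintro _ ⟨s, hs, rfl⟩
  refine ⟨φ s, ?_, rfl⟩
  have h1 : φ • s ∈ φ • (S : Subgroup M) := smul_mem_pointwise_smul _ _ _ hs
  have h2 : φ • (S : Subgroup M) = S := congrArg Sylow.toSubgroup hS'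
  rw [h2] at h1
  exact h1

/-- elements of `C_D(z)` centralizing a normal subgroup with a solvable centralizer -/
theorem f_eq_one [hA : IsSimpleGroup A] (hAc : ¬ Group.IsSolvable A) (h : Rad p z x N f) {S : Subgroup D}
    (hSn : S.Normal) (hSs : Group.IsSolvable ↥(centralizer (S : Set D))) {c : ↥(centralizer ({z} : Set D))}
    (hc : ∀ s ∈ S, s * (c : D) = c * s) : f c = 1 := by
  set K := (centralizer (S : Set D)).subgroupOf (centralizer ({z} : Set D)) with hK
  have hKn : K.Normal := by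
    have h1 : (centralizer (S : Set D)).Normal := inferInstance
    exact h1.subgroupOf _
  have h1 : (K.map f).Normal := hKn.map f h.surj
  rcases h1.eq_bot_or_eq_top with h2 | h2
  · have h3 : f c ∈ K.map f := mem_map_of_mem f (mem_subgroupOf.2 (mem_centralizer_iff.2 hc))
    rw [h2] at h3
    exact mem_bot.1 h3
  · exfalso
    apply hAc
    have hKs : Group.IsSolvable K := by
      have := hSs
      let g : K →* ↥(centralizer (S : Set D)) :=
        ((centralizer ({z} : Set D)).subtype.comp K.subtype).codRestrict _ fun k => mem_subgroupOf.1 k.2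
      refine Group.isSolvable_of_isSolvable_injective (f := g) ?_
      intro a b hab
      have h3 : (((a : ↥(centralizer ({z} : Set D))) : D)) = ((b : ↥(centralizer ({z} : Set D))) : D) :=
        congrArg (fun t : ↥(centralizer (S : Set D)) => (t : D)) hab
      exact Subtype.ext (Subtype.ext h3)
    have h3 : Function.Surjective (f.comp K.subtype) := by
      intro a
      have h4 : a ∈ K.map f := by rw [h2]; trivial
      obtain ⟨k, hk, rfl⟩ := h4
      exact ⟨⟨k, hk⟩, rfl⟩
    exact Group.isSolvable_of_surjective h3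

end inD

/-- **An element of a normal 3-subgroup has a centralizer of even order** (after `H993.NoBadMAbs.main_abs`). -/
theorem false_of_mem {D : Type u} [Group D] [Finite D] {z : D} {X : Type v} [Group X]
    (hX : Spor.IsoSuz X) {φ : ↥(centralizer ({z} : Set D)) →* X} (hφ : Function.Surjective φ)
    (hD : ¬ 3 ^ 21 ∣ Nat.card D) {R : Subgroup D} (hRn : R.Normal) (hRp : IsPGroup 3 R) {x : D}
    (hxR : x ∈ R) (hxo : Odd (Nat.card ↥(centralizer ({x} : Set D)))) : False := by
  have h3F : Fact (Nat.Prime 3) := ⟨Nat.prime_three⟩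
  have hXs := H503.TwoSuz.simple_of hX
  have hXc := H503.TwoSuz.card_of hX
  have hXf : Finite X := Finite.of_surjective φ hφ
  have hRo : Odd (Nat.card R) := by
    obtain ⟨m, hm⟩ := IsPGroup.iff_card.1 hRp
    rw [hm]
    exact Odd.pow (by decide)
  -- `R` meets `C(z)` in the kernel
  have hker : R.subgroupOf (centralizer ({z} : Set D)) ≤ φ.ker := by
    have hn : ((R.subgroupOf (centralizer ({z} : Set D))).map φ).Normal :=
      Subgroup.Normal.map (hRn.subgroupOf _) φ hφ
    rcases hn.eq_bot_or_eq_top with h | h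
    · exact (Subgroup.map_eq_bot_iff _).1 h
    · exfalso
      have h1 : Nat.card X ∣ Nat.card R := by
        rw [← Subgroup.card_top (G := X), ← h]
        refine (Subgroup.card_map_dvd _ φ).trans ?_
        rw [← Subgroup.card_map_of_injective (Subgroup.subtype_injective (centralizer ({z} : Set D))),
          subgroupOf_map_subtype]
        exact Subgroup.card_dvd_of_le inf_le_left
      rw [hXc] at h1
      exact (Nat.not_even_iff_odd.2 hRo) ((even_iff_two_dvd).2 ((by norm_num : 2 ∣ 448345497600).trans h1))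
  have hRcard : Nat.card R ≤ 1594323 := by
    obtain ⟨m, hm⟩ := IsPGroup.iff_card.1 hRp
    have h1 : Nat.card X ∣ R.index := by
      have h2 : Nat.card X = φ.ker.index := by
        rw [Subgroup.index_ker, MonoidHom.range_eq_top.2 hφ, Subgroup.card_top]
      rw [h2]
      refine (Subgroup.index_dvd_of_le hker).trans ?_
      exact Subgroup.relIndex_dvd_index_of_normal R _
    have h2 : 3 ^ m * 3 ^ 7 ∣ Nat.card D := by
      rw [← R.card_mul_index, hm]
      refine Nat.mul_dvd_mul_left _ (Dvd.dvd.trans ?_ h1)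
      rw [hXc]; norm_num
    have h3 : m ≤ 13 := by
      by_contra hcon
      apply hD
      refine Dvd.dvd.trans ?_ h2
      rw [← pow_add]
      exact pow_dvd_pow 3 (by omega)
    calc Nat.card R = 3 ^ m := hm
      _ ≤ 3 ^ 13 := Nat.pow_le_pow_right (by norm_num) h3
      _ = 1594323 := by norm_num
  -- the centralizer of `x` in `C(z)`
  set CL : Subgroup ↥(centralizer ({z} : Set D)) := (centralizer ({x} : Set D)).subgroupOf _ with hCL
  have hCLo : Odd (Nat.card CL) := by
    refine hxo.of_dvd_nat ?_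
    rw [← Subgroup.card_map_of_injective (Subgroup.subtype_injective (centralizer ({z} : Set D))), hCL,
      subgroupOf_map_subtype]
    exact Subgroup.card_dvd_of_le inf_le_left
  have hidx : CL.index ≤ Nat.card R := by
    let f : ↥(centralizer ({z} : Set D)) ⧸ CL → ↥R := Quotient.lift
      (fun g => (⟨(g : D) * x * (g : D)⁻¹, hRn.conj_mem x hxR g⟩ : ↥R)) (by
        intro a b hab
        have h1 : a⁻¹ * b ∈ CL := QuotientGroup.leftRel_apply.1 hab
        have h2 : ((a : D)⁻¹ * b) * x = x * ((a : D)⁻¹ * b) := mem_centralizer_singleton_iff.1 (mem_subgroupOf.1 h1)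
        apply Subtype.ext
        show (a : D) * x * (a : D)⁻¹ = b * x * (b : D)⁻¹
        calc (a : D) * x * (a : D)⁻¹ = a * (x * ((a : D)⁻¹ * b)) * (b : D)⁻¹ := by group
          _ = a * (((a : D)⁻¹ * b) * x) * (b : D)⁻¹ := by rw [h2]
          _ = b * x * (b : D)⁻¹ := by group)
    have hf : Function.Injective f := by
      intro a b
      refine QuotientGroup.induction_on a fun a => QuotientGroup.induction_on b fun b => ?_
      intro hab
      have h1 : (a : D) * x * (a : D)⁻¹ = b * x * (b : D)⁻¹ := congrArg Subtype.val hab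
      rw [QuotientGroup.eq]
      refine mem_subgroupOf.2 (mem_centralizer_singleton_iff.2 ?_)
      show ((a : D)⁻¹ * b) * x = x * ((a : D)⁻¹ * b)
      calc ((a : D)⁻¹ * b) * x = (a : D)⁻¹ * (b * x * (b : D)⁻¹) * b := by group
        _ = (a : D)⁻¹ * (a * x * (a : D)⁻¹) * b := by rw [h1]
        _ = x * ((a : D)⁻¹ * b) := by group
    exact Nat.card_le_card_of_injective f hf
  have h1 : (CL.map φ).index ≤ 1594323 := by
    have h2 : (CL.map φ).index ∣ CL.index := Subgroup.index_map_dvd CL hφ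
    have h3 : 0 < CL.index := Nat.pos_of_ne_zero Subgroup.index_ne_zero_of_finite
    exact (Nat.le_of_dvd h3 h2).trans (hidx.trans hRcard)
  exact H993.NoBadMAbs.no_odd_suz hX (CL.map φ) (hCLo.of_dvd_nat (Subgroup.card_map_dvd CL φ)) h1

/-- an element of odd order which maps an element of order 3 to one of its powers centralizes it -/
theorem comm_of_pow {G : Type u} [Group G] {w y : G} (hy : orderOf y = 3) (hw : Odd (orderOf w)) {i : ℤ}
    (h : w * y * w⁻¹ = y ^ i) : w * y = y * w := by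
  have hy3 : y ^ (3 : ℤ) = 1 := by
    rw [show (3 : ℤ) = ((3 : ℕ) : ℤ) from rfl, zpow_natCast, ← hy, pow_orderOf_eq_one]
  have hy1 : y ≠ 1 := by
    intro h1
    rw [h1, orderOf_one] at hy
    norm_num at hy
  have h2 : y ^ i = y ^ (i % 3) := by
    conv_lhs => rw [← Int.emod_add_mul_ediv i 3]
    rw [zpow_add, zpow_mul, hy3, one_zpow, mul_one]
  have h3 := Int.emod_nonneg i (by norm_num : (3 : ℤ) ≠ 0)
  have h4 := Int.emod_lt_of_pos i (by norm_num : (0 : ℤ) < 3)
  have h5 : i % 3 = 0 ∨ i % 3 = 1 ∨ i % 3 = 2 := by omega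
  rcases h5 with h5 | h5 | h5
  · exfalso
    rw [h2, h5, zpow_zero] at h
    apply hy1
    calc y = w⁻¹ * (w * y * w⁻¹) * w := by group
      _ = 1 := by rw [h]; group
  · rw [h2, h5, zpow_one] at h
    exact mul_inv_eq_iff_eq_mul.1 h
  · have h6 : y ^ (2 : ℤ) = y⁻¹ := by
      rw [eq_inv_iff_mul_eq_one, ← zpow_add_one]
      exact hy3
    rw [h2, h5, h6] at h
    have h7 : (w * w) * y = y * (w * w) := by
      calc (w * w) * y = w * (w * y * w⁻¹) * w := by group
        _ = w * y⁻¹ * w := by rw [h]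
        _ = (w * y * w⁻¹)⁻¹ * (w * w) := by group
        _ = y * (w * w) := by rw [h, inv_inv]
    obtain ⟨n, hn⟩ := hw
    have h8 : w = (w * w) ^ (n + 1) := by
      have h9 : w ^ (2 * n + 1) = 1 := by rw [← hn, pow_orderOf_eq_one]
      rw [← pow_two, ← pow_mul, show 2 * (n + 1) = (2 * n + 1) + 1 from by ring, pow_succ, h9, one_mul]
    rw [h8]
    exact (show Commute (w * w) y from h7).pow_left (n + 1)

section main

variable {G : Type u} [Group G] [Finite G] [hG : IsSimpleGroup G]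

local instance : Fact (Nat.Prime 3) := ⟨Nat.prime_three⟩

/-- **The main step**: `P` a Sylow 3-subgroup of `C(x₀)` invariant under `z` and under `x`, with the 3-part of `x`. -/
theorem aux {x₀ : G} {D : Subgroup G} (hmem : ∀ {v : G}, v ∈ D ↔ v * x₀ = x₀ * v) {hx₀D : x₀ ∈ D} {z : ↥D}
    {N : Subgroup ↥D} {A : Type v} [Group A] {f : ↥(centralizer ({z} : Set ↥D)) →* A}
    (hA : Spor.IsoSuz A) (hR : Rad 3 z ⟨x₀, hx₀D⟩ N f)
    {k : ↥(centralizer ({z} : Set ↥D))} (hk : (k : ↥D) * k = z)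
    (hc9 : 3 ^ 9 ∣ Nat.card ↥D) (hc21 : ¬ 3 ^ 21 ∣ Nat.card G)
    {P : Subgroup G} (hPp : IsPGroup 3 P) (hPi : ¬ 3 ∣ P.index) (hPD : ∀ v ∈ P, v * x₀ = x₀ * v)
    (hzP : ∀ v ∈ P, (z : G) * v * (z : G)⁻¹ ∈ P)
    {x e w : G} (hs : Str 3 x) (hxew : x = e * w) (hw : w ∈ zpowers x) {k' m : ℕ}
    (hek : e ^ 3 ^ k' = 1) (hwm : w ^ m = 1) (hm : ¬ 3 ∣ m)
    (hodd : Odd (Nat.card ↥(centralizer ({x} : Set G)))) (heP : e ∈ P) (hxP : x ∈ normalizer (P : Set G)) :
    False := by
  have hAs := H503.TwoSuz.simple_of hA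
  have hAcard := H503.TwoSuz.card_of hA
  have hAf : Finite A := Nat.finite_of_card_ne_zero (by rw [hAcard]; norm_num)
  have hAc : ¬ Group.IsSolvable A := by
    intro h1
    have h2 := IsSimpleGroup.comm_iff_isSolvable.2 h1
    let _ : CommGroup A := { (inferInstance : Group A) with mul_comm := h2 }
    have h3 : (Nat.card A).Prime := IsSimpleGroup.prime_card
    rw [hAcard] at h3
    norm_num at h3
  have hx₀o : orderOf x₀ = 3 := by
    have := hR.ox
    rwa [Subgroup.orderOf_mk] at this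
  have hx₀1 : x₀ ≠ 1 := by
    intro h1
    rw [h1, orderOf_one] at hx₀o
    norm_num at hx₀o
  have hzz : (z : G) * z = 1 := congrArg Subtype.val hR.zz
  have hz1 : (z : G) ≠ 1 := fun h1 => hR.z1 (Subtype.ext h1)
  have hzi : (z : G)⁻¹ = z := inv_eq_of_mul_eq_one_left hzz
  have hzo : orderOf (z : G) = 2 := orderOf_eq_prime (by rw [pow_two]; exact hzz) hz1
  have hzD : (z : G) * x₀ = x₀ * z := hmem.1 z.2
  -- normal 3-subgroups of `G`
  have hO : ∀ M : Subgroup G, M.Normal → IsPGroup 3 M → M = ⊥ := by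
    intro M hMn hMp
    rcases hMn.eq_bot_or_eq_top with h1 | h1
    · exact h1
    · exfalso
      have h2 : (z : G) ∈ M := by rw [h1]; trivial
      obtain ⟨j, hj⟩ := hMp ⟨z, h2⟩
      have h3 : (z : G) ^ 3 ^ j = 1 := congrArg Subtype.val hj
      have h4 : orderOf (z : G) ∣ 3 ^ j := orderOf_dvd_of_pow_eq_one h3
      rw [hzo] at h4
      have h5 : Odd (3 ^ j) := Odd.pow (by decide)
      exact (Nat.not_even_iff_odd.2 h5) (even_iff_two_dvd.2 h4)
  have hDt : D ≠ ⊤ := by
    intro h1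
    apply hx₀1
    have h2 : zpowers x₀ = ⊥ := by
      refine hO _ ⟨fun v hv g => ?_⟩ (IsPGroup.of_card (n := 1) (by rw [Nat.card_zpowers, hx₀o, pow_one]))
      obtain ⟨i, rfl⟩ := hv
      have h3 : g * x₀ = x₀ * g := hmem.1 (by rw [h1]; trivial)
      show g * x₀ ^ i * g⁻¹ ∈ _
      rw [((show Commute g x₀ from h3).zpow_right i).eq, mul_inv_cancel_right]
      exact ⟨i, rfl⟩
    rw [← mem_bot, ← h2]
    exact mem_zpowers x₀
  -- the normalizer of `P`
  set Nn : Subgroup G := normalizer (P : Set G) with hNn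
  have hPN : P ≤ Nn := le_normalizer
  have hNt : Nn ≠ ⊤ := by
    intro h1
    have h2 : P.Normal := normalizer_eq_top_iff.1 h1
    have h3 := hO P h2 hPp
    apply hPi
    rw [h3, index_bot, ← hx₀o]
    exact orderOf_dvd_natCard x₀
  have hzN : (z : G) ∈ Nn := by
    rw [mem_normalizer_iff]
    intro v
    refine ⟨hzP v, fun hv => ?_⟩
    have h1 := hzP _ hv
    have h2 : (z : G) * (z * v * (z : G)⁻¹) * (z : G)⁻¹ = v := by
      calc (z : G) * (z * v * (z : G)⁻¹) * (z : G)⁻¹ = ((z : G) * z) * v * ((z : G) * z)⁻¹ := by group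
        _ = v := by rw [hzz]; group
    rwa [h2] at h1
  have hwN : w ∈ Nn := (zpowers_le.2 hxP) hw
  set PN := P.subgroupOf Nn with hPNd
  have hPNn : PN.Normal := by
    refine ⟨fun v hv g => ?_⟩
    rw [hPNd, mem_subgroupOf] at hv ⊢
    exact (mem_normalizer_iff.1 g.2 _).1 hv
  have hPNp : IsPGroup 3 PN := hPp.comap_subtype
  have hPNi : ¬ 3 ∣ PN.index := fun h1 => hPi (h1.trans (relIndex_dvd_index_of_le hPN))
  have hcore : pCore 3 Nn ≤ PN := pCore_le_sylow (hPNp.toSylow hPNi)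
  -- orders
  have how : orderOf w ∣ m := orderOf_dvd_of_pow_eq_one hwm
  have how3 : ¬ 3 ∣ orderOf w := fun h1 => hm (h1.trans how)
  have howc : (orderOf w).Coprime 3 := ((Nat.Prime.coprime_iff_not_dvd Nat.prime_three).2 how3).symm
  have hwx : w * x = x * w := by
    obtain ⟨i, rfl⟩ := hw
    exact ((Commute.refl x).zpow_left i).eq
  have howo : Odd (orderOf w) := by
    have h1 : w ∈ centralizer ({x} : Set G) := mem_centralizer_singleton_iff.2 hwx
    refine hodd.of_dvd_nat ?_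
    have := orderOf_dvd_natCard (⟨w, h1⟩ : ↥(centralizer ({x} : Set G)))
    rwa [Subgroup.orderOf_mk] at this
  -- `w` commutes with a conjugate of `z`
  obtain ⟨a, haP, hac⟩ : ∃ a ∈ P, (a * z * a⁻¹) * w = w * (a * z * a⁻¹) := by
    have h1 : cm (⟨z, hzN⟩ : Nn) ⟨w, hwN⟩ ∈ PN := by
      obtain ⟨c, hc, hcx⟩ := hs.pow hxP hNt hw hzN
      have h2 : cm (⟨z, hzN⟩ : Nn) ⟨w, hwN⟩ = c⁻¹ := by
        apply Subtype.ext
        have h3 : (c : G) = cm w (z : G) := hcx
        show cm (z : G) w = (c : G)⁻¹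
        rw [h3]
        unfold cm
        group
      rw [h2]
      exact PN.inv_mem (hcore hc)
    obtain ⟨a, ha, hac⟩ := Cfsg.Agent.H472.ComRed.exists_conj_commute hPNp
      (x := (⟨z, hzN⟩ : Nn)) (v := ⟨w, hwN⟩) (by rw [Subgroup.orderOf_mk, hzo]; norm_num)
      (by rw [Subgroup.orderOf_mk]; exact howc) h1
    exact ⟨a, mem_subgroupOf.1 ha, congrArg Subtype.val hac.eq⟩
  have hPleD : P ≤ D := fun v hv => hmem.2 (hPD v hv)
  have haD : a ∈ D := hPleD haP
  -- the radical
  obtain ⟨S, hSn, hSp, -, hxS, hSs⟩ := hR.exists_radical hAc (by norm_num) hk (a := 7) hc9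
    (by rw [hAcard]; norm_num)
  have hSP : ∀ s ∈ S, (s : G) ∈ P := by
    have h1 : IsPGroup 3 (P.subgroupOf D) := hPp.comap_subtype
    have h2 : ¬ 3 ∣ (P.subgroupOf D).index := fun h1 => hPi (h1.trans (relIndex_dvd_index_of_le hPleD))
    have h3 : S ≤ P.subgroupOf D := hSp.le_sylow_of_normal (h1.toSylow h2)
    exact fun s hs' => mem_subgroupOf.1 (h3 hs')
  have hx₀P : x₀ ∈ P := hSP _ hxS
  -- the conjugate of `x₀`
  set x₁ : G := w * x₀ * w⁻¹ with hx₁
  have hx₁c : ∀ v ∈ P, v * x₁ = x₁ * v := by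
    intro v hv
    have h1 : w⁻¹ * v * w ∈ P := by
      have := (mem_normalizer_iff.1 (Nn.inv_mem hwN) v).1 hv
      rwa [inv_inv] at this
    have h2 := hPD _ h1
    calc v * x₁ = w * ((w⁻¹ * v * w) * x₀) * w⁻¹ := by rw [hx₁]; group
      _ = w * (x₀ * (w⁻¹ * v * w)) * w⁻¹ := by rw [h2]
      _ = x₁ * v := by rw [hx₁]; group
  set z₂ : G := a * z * a⁻¹ with hz₂
  have hz₂0 : z₂ * x₀ = x₀ * z₂ := by
    have h1 : z₂ ∈ D := D.mul_mem (D.mul_mem haD z.2) (D.inv_mem haD)
    exact hmem.1 h1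
  have hz₂1 : z₂ * x₁ = x₁ * z₂ := by
    have c1 : Commute z₂ w := hac
    have c2 : Commute z₂ x₀ := hz₂0
    exact ((c1.mul_right c2).mul_right c1.inv_right).eq
  have hzx₁ : (z : G) * x₁ = x₁ * z := by
    have c1 : Commute a x₁ := hx₁c a haP
    have c2 : Commute z₂ x₁ := hz₂1
    have h1 : (z : G) = a⁻¹ * z₂ * a := by rw [hz₂]; group
    rw [h1]
    exact ((c1.inv_left.mul_left c2).mul_left c1).eq
  have hx₁D : x₁ ∈ D := hmem.2 (hx₁c x₀ hx₀P).symm
  let c₁ : ↥(centralizer ({z} : Set ↥D)) :=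
    ⟨⟨x₁, hx₁D⟩, mem_centralizer_singleton_iff.2 (Subtype.ext hzx₁.symm)⟩
  have hf1 : f c₁ = 1 := f_eq_one hAc hR hSn hSs fun s hs' => Subtype.ext (hx₁c _ (hSP s hs'))
  have hx₁o : x₁ ^ 3 = 1 := by
    rw [hx₁, conj_pow]
    have : x₀ ^ 3 = 1 := by rw [← hx₀o, pow_orderOf_eq_one]
    rw [this]; group
  have hzp : ∀ i : ℤ, (x₀ ^ i) ^ 3 = 1 := by
    intro i
    rw [← zpow_natCast, ← zpow_mul, mul_comm, zpow_mul, zpow_natCast, ← hx₀o, pow_orderOf_eq_one, one_zpow]
  have hwx₀ : w * x₀ = x₀ * w := by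
    obtain ⟨i, hi | hi⟩ := hR.ker c₁ hf1
    · have h1 : x₁ = x₀ ^ i := congrArg Subtype.val hi
      exact comm_of_pow hx₀o howo h1
    · exfalso
      have h1 : x₁ = x₀ ^ i * z := congrArg Subtype.val hi
      apply hz1
      have c1 : Commute (x₀ ^ i) (z : G) := ((show Commute (z : G) x₀ from hzD).zpow_right i).symm
      rw [h1, c1.mul_pow, hzp, one_mul, pow_succ, pow_two, hzz, one_mul] at hx₁o
      exact hx₁o
  have hwD : w ∈ D := hmem.2 hwx₀
  have hxD : x ∈ D := by
    rw [hxew]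
    exact D.mul_mem (hPleD heP) hwD
  -- normal 3-subgroups of `D`
  have hOf : ∀ c : ↥(centralizer ({z} : Set ↥D)), (c : ↥D) ∈ pCore 3 ↥D → f c = 1 := by
    intro c hc
    set K := (pCore 3 ↥D).subgroupOf (centralizer ({z} : Set ↥D)) with hK
    have hKn : K.Normal := (pCore_normal (G := ↥D) 3).subgroupOf _
    have hKp : IsPGroup 3 K := (pCore_isPGroup (G := ↥D) 3).comap_subtype
    have h1 : (K.map f).Normal := hKn.map f hR.surj
    have h2 : IsPGroup 3 (K.map f) := hKp.map f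
    have h3 : f c ∈ K.map f := mem_map_of_mem f (mem_subgroupOf.2 hc)
    rcases h1.eq_bot_or_eq_top with h4 | h4
    · rw [h4] at h3
      exact mem_bot.1 h3
    · exfalso
      rw [h4] at h2
      have h5 := IsPGroup.iff_card.1 h2
      obtain ⟨n, hn⟩ := h5
      rw [card_top, hAcard] at hn
      have h6 : Odd (3 ^ n) := Odd.pow (by decide)
      rw [← hn] at h6
      revert h6
      decide
  -- `w = 1`
  have hw1 : w = 1 := by
    set w₂ : G := a⁻¹ * w * a with hw₂
    have hw₂D : w₂ ∈ D := D.mul_mem (D.mul_mem (D.inv_mem haD) hwD) haD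
    have hw₂z : w₂ * z = z * w₂ := by
      have h1 : (z : G) = a⁻¹ * z₂ * a := by rw [hz₂]; group
      calc w₂ * z = a⁻¹ * (w * z₂) * a := by rw [h1, hw₂]; group
        _ = a⁻¹ * (z₂ * w) * a := by rw [hac]
        _ = z * w₂ := by rw [h1, hw₂]; group
    let c₂ : ↥(centralizer ({z} : Set ↥D)) :=
      ⟨⟨w₂, hw₂D⟩, mem_centralizer_singleton_iff.2 (Subtype.ext hw₂z)⟩
    have h1 : f c₂ ∈ center A := by
      rw [mem_center_iff]
      intro b
      obtain ⟨g, rfl⟩ := hR.surj b
      have h2 : f (cm c₂ g) = 1 := by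
        apply hOf
        have h3 := hs.pow hxD hDt hw (d := a * ((g : ↥D) : G) * a⁻¹)
          (D.mul_mem (D.mul_mem haD (g : ↥D).2) (D.inv_mem haD))
        obtain ⟨c, hc, hcx⟩ := h3
        have h4 := (pCore_normal (G := ↥D) 3).conj_mem c hc ⟨a⁻¹, D.inv_mem haD⟩
        have h5 : ((cm c₂ g : ↥(centralizer ({z} : Set ↥D))) : ↥D) =
            ⟨a⁻¹, D.inv_mem haD⟩ * c * ⟨a⁻¹, D.inv_mem haD⟩⁻¹ := by
          apply Subtype.ext
          have h6 : (c : G) = cm w (a * ((g : ↥D) : G) * a⁻¹) := hcx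
          show cm w₂ ((g : ↥D) : G) = a⁻¹ * (c : G) * a⁻¹⁻¹
          rw [h6, hw₂]
          unfold cm
          group
        rw [h5]
        exact h4
      rw [Cfsg.Agent.H472.ComRed.map_cm] at h2
      exact (Cfsg.Agent.H472.ComRed.cm_eq_one.1 h2).symm
    have h2 : center A = ⊥ := by
      rcases (inferInstance : (center A).Normal).eq_bot_or_eq_top with h3 | h3
      · exact h3
      · exact (hAc (Group.isSolvable_of_comm fun a b => mem_center_iff.1 (h3 ▸ mem_top b) a)).elim
    rw [h2, mem_bot] at h1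
    have h3 : w₂ ^ 6 = 1 := by
      obtain ⟨i, hi | hi⟩ := hR.ker c₂ h1
      · have h4 : w₂ = x₀ ^ i := congrArg Subtype.val hi
        rw [h4, show 6 = 3 * 2 from rfl, pow_mul, hzp, one_pow]
      · have h4 : w₂ = x₀ ^ i * z := congrArg Subtype.val hi
        have c1 : Commute (x₀ ^ i) (z : G) := ((show Commute (z : G) x₀ from hzD).zpow_right i).symm
        rw [h4, c1.mul_pow, show 6 = 3 * 2 from rfl, pow_mul, hzp, one_pow, one_mul, show 3 * 2 = 2 * 3 from rfl,
          pow_mul, pow_two, hzz, one_pow]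
    have h4 : w ^ 6 = 1 := by
      have h5 : w = a * w₂ * a⁻¹ := by rw [hw₂]; group
      rw [h5, conj_pow, h3]
      group
    have h5 : orderOf w ∣ 3 * 2 := orderOf_dvd_of_pow_eq_one h4
    have h6 : orderOf w ∣ 2 := howc.dvd_of_dvd_mul_left h5
    have h7 : orderOf w = 1 :=
      Nat.eq_one_of_dvd_coprimes (Nat.coprime_two_right.2 howo) dvd_rfl h6
    exact orderOf_eq_one_iff.1 h7
  -- `x` is a 3-element
  have hxe : x = e := by rw [hxew, hw1, mul_one]
  have hxk : x ^ 3 ^ k' = 1 := by rw [hxe, hek]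
  have h1 := hs.mem hxD hDt (mem_zpowers x) hxk
  rw [mem_map_pCore hxD] at h1
  refine false_of_mem (D := ↥D) hA hR.surj (fun h2 => hc21 (h2.trans (card_subgroup_dvd_card D)))
    (pCore_normal (G := ↥D) 3) (pCore_isPGroup (G := ↥D) 3) h1 (hodd.of_dvd_nat ?_)
  let g : ↥(centralizer ({(⟨x, hxD⟩ : ↥D)} : Set ↥D)) →* ↥(centralizer ({x} : Set G)) :=
    (D.subtype.comp (Subgroup.subtype _)).codRestrict _ fun c =>
      mem_centralizer_singleton_iff.2 (congrArg Subtype.val (mem_centralizer_singleton_iff.1 c.2))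
  have hg : Function.Injective g := by
    intro a b hab
    have h2 : ((a : ↥D) : G) = ((b : ↥D) : G) := congrArg (fun c : ↥(centralizer ({x} : Set G)) => (c : G)) hab
    exact Subtype.ext (Subtype.ext h2)
  exact Subgroup.card_dvd_of_injective g hg

/-- the order of the centralizer of a conjugate -/
theorem card_cent_conj {x g : G} : Nat.card ↥(centralizer ({g * x * g⁻¹} : Set G)) ∣
    Nat.card ↥(centralizer ({x} : Set G)) := by
  let f : ↥(centralizer ({g * x * g⁻¹} : Set G)) →* ↥(centralizer ({x} : Set G)) :=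
    ((MulAut.conj g⁻¹).toMonoidHom.comp (Subgroup.subtype _)).codRestrict _ fun c => by
      rw [mem_centralizer_singleton_iff]
      have h1 : (c : G) * (g * x * g⁻¹) = (g * x * g⁻¹) * c := mem_centralizer_singleton_iff.1 c.2
      show g⁻¹ * (c : G) * g⁻¹⁻¹ * x = x * (g⁻¹ * (c : G) * g⁻¹⁻¹)
      calc g⁻¹ * (c : G) * g⁻¹⁻¹ * x = g⁻¹ * ((c : G) * (g * x * g⁻¹)) * g := by group
        _ = g⁻¹ * ((g * x * g⁻¹) * c) * g := by rw [h1]
        _ = _ := by group
  refine Subgroup.card_dvd_of_injective f ?_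
  intro a b hab
  have h1 : g⁻¹ * (a : G) * g⁻¹⁻¹ = g⁻¹ * (b : G) * g⁻¹⁻¹ :=
    congrArg (fun c : ↥(centralizer ({x} : Set G)) => (c : G)) hab
  exact Subtype.ext (mul_left_cancel (mul_right_cancel h1))

/-- **No element of order divisible by 3 has the strong property.** -/
theorem main {x₀ : G} {D : Subgroup G} (hmem : ∀ {v : G}, v ∈ D ↔ v * x₀ = x₀ * v) {hx₀D : x₀ ∈ D} {z : ↥D}
    {N : Subgroup ↥D} {A : Type v} [Group A] {f : ↥(centralizer ({z} : Set ↥D)) →* A}
    (hA : Spor.IsoSuz A) (hR : Rad 3 z ⟨x₀, hx₀D⟩ N f)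
    {k : ↥(centralizer ({z} : Set ↥D))} (hk : (k : ↥D) * k = z)
    (hc9 : 3 ^ 9 ∣ Nat.card ↥D) (hc21 : ¬ 3 ^ 21 ∣ Nat.card G) (hidx : ¬ 3 ∣ D.index)
    {x : G} (hs : Str 3 x) (hd : 3 ∣ orderOf x) (hodd : Odd (Nat.card ↥(centralizer ({x} : Set G)))) : False := by
  obtain ⟨e, he, w, hw, k', m, hx, hek, hwm, hm⟩ := exists_parts Nat.prime_three x
  have he1 : e ≠ 1 := by
    intro h1
    rw [h1, one_mul] at hx
    rw [← hx] at hwm
    exact hm (hd.trans (orderOf_dvd_of_pow_eq_one hwm))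
  have hzz : (z : G) * z = 1 := congrArg Subtype.val hR.zz
  have hz1 : (z : G) ≠ 1 := fun h1 => hR.z1 (Subtype.ext h1)
  have hzo : orderOf (z : G) = 2 := orderOf_eq_prime (by rw [pow_two]; exact hzz) hz1
  have hO : ∀ M : Subgroup G, M.Normal → IsPGroup 3 M → M = ⊥ := by
    intro M hMn hMp
    rcases hMn.eq_bot_or_eq_top with h1 | h1
    · exact h1
    · exfalso
      have h2 : (z : G) ∈ M := by rw [h1]; trivial
      obtain ⟨j, hj⟩ := hMp ⟨z, h2⟩
      have h3 : (z : G) ^ 3 ^ j = 1 := congrArg Subtype.val hj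
      have h4 : orderOf (z : G) ∣ 3 ^ j := orderOf_dvd_of_pow_eq_one h3
      rw [hzo] at h4
      have h5 : Odd (3 ^ j) := Odd.pow (by decide)
      exact (Nat.not_even_iff_odd.2 h5) (even_iff_two_dvd.2 h4)
  obtain ⟨P, heP, hxP⟩ := hs.exists_sylow hO he hek he1
  obtain ⟨P₀, hP₀⟩ := exists_sylow_inv hR (by norm_num)
  set P₁ : Subgroup G := (P₀ : Subgroup ↥D).map D.subtype with hP₁
  have hP₁p : IsPGroup 3 P₁ := P₀.isPGroup'.map _
  have hP₁i : ¬ 3 ∣ P₁.index := by
    rw [← relIndex_mul_index (map_subtype_le (P₀ : Subgroup ↥D)), Nat.prime_three.dvd_mul, not_or]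
    refine ⟨?_, hidx⟩
    have h1 : ((P₀ : Subgroup ↥D).map D.subtype).relIndex D = (P₀ : Subgroup ↥D).index := by
      rw [relIndex, subgroupOf, comap_map_eq_self_of_injective D.subtype_injective]
    rw [h1]
    exact P₀.not_dvd_index
  obtain ⟨g, hg⟩ := MulAction.exists_smul_eq G P (hP₁p.toSylow hP₁i)
  have hg' : (P : Subgroup G).map (MulAut.conj g).toMonoidHom = P₁ := congrArg Sylow.toSubgroup hg
  have hgm : ∀ v : G, v ∈ P → g * v * g⁻¹ ∈ P₁ := by
    intro v hv
    rw [← hg']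
    exact ⟨v, hv, rfl⟩
  have hgn : g * x * g⁻¹ ∈ normalizer (P₁ : Set G) := by
    rw [mem_normalizer_iff]
    intro v
    constructor
    · intro hv
      rw [← hg'] at hv
      obtain ⟨u, hu, rfl⟩ := hv
      have h1 := hgm _ ((mem_normalizer_iff.1 hxP u).1 hu)
      have h2 : g * x * g⁻¹ * (MulAut.conj g).toMonoidHom u * (g * x * g⁻¹)⁻¹ = g * (x * u * x⁻¹) * g⁻¹ := by
        show g * x * g⁻¹ * (g * u * g⁻¹) * (g * x * g⁻¹)⁻¹ = _
        group
      rw [h2]
      exact h1
    · intro hv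
      rw [← hg'] at hv
      obtain ⟨u, hu, hue⟩ := hv
      have hue' : g * u * g⁻¹ = g * x * g⁻¹ * v * (g * x * g⁻¹)⁻¹ := hue
      have h1 : g⁻¹ * v * g ∈ P := by
        refine (mem_normalizer_iff.1 hxP _).2 ?_
        have h2 : x * (g⁻¹ * v * g) * x⁻¹ = u := by
          calc x * (g⁻¹ * v * g) * x⁻¹ = g⁻¹ * (g * x * g⁻¹ * v * (g * x * g⁻¹)⁻¹) * g := by group
            _ = u := by rw [← hue']; group
        rw [h2]
        exact hu
      have h3 := hgm _ h1
      have h4 : g * (g⁻¹ * v * g) * g⁻¹ = v := by group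
      rwa [h4] at h3
  refine aux hmem hA hR hk hc9 hc21 hP₁p hP₁i ?_ ?_ (hs.conj g) (e := g * e * g⁻¹) (w := g * w * g⁻¹) ?_ ?_
    (k' := k') (m := m) ?_ ?_ hm (hodd.of_dvd_nat card_cent_conj) (hgm e heP) hgn
  · rintro _ ⟨v, -, rfl⟩
    exact hmem.1 v.2
  · rintro _ ⟨v, hv, rfl⟩
    exact ⟨_, hP₀ v hv, rfl⟩
  · rw [hx]; group
  · obtain ⟨i, rfl⟩ := hw
    exact ⟨i, by show (g * x * g⁻¹) ^ i = g * x ^ i * g⁻¹; rw [conj_zpow]⟩
  · rw [conj_pow, hek]; group
  · rw [conj_pow, hwm]; group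

end main

end Cfsg.Agent.H722.Strong.Abs
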